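import Cfsg.Agent.H969.DPi.Frame
import Cfsg.Agent.H680.DP.ExTS
import Cfsg.Agent.H602.DP.Min

/-!
# Existence of frames for non-nilpotent Hall `π`-subgroups, parts of elements, the size of the blocks (helper969, S4247)
-/

set_option autoImplicit false
set_option linter.unusedSectionVars false

namespace Cfsg.Agent.H969.DPi

open Module Cfsg.Agent.H167.OP Cfsg.Agent.H560.HallKey Cfsg.Agent.H170.HL Cfsg.Agent.H988.CPi
  Cfsg.Agent.H553.OddHall Cfsg.Agent.H571.RV Cfsg.Agent.H572.RV Cfsg.Agent.H602.DP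

section grp

variable {G : Type*} [Group G] [Finite G]

theorem relIndex_sup_of_norm {A N : Subgroup G} (h : A ≤ Subgroup.normalizer (N : Set G)) :
    A.relIndex N = A.relIndex (A ⊔ N) := by
  have h1 := card_sup h
  have h2 : Nat.card A * A.relIndex (A ⊔ N) = Nat.card (A ⊔ N : Subgroup G) := by
    have := Subgroup.relIndex_mul_relIndex ⊥ A (A ⊔ N) bot_le le_sup_left
    rwa [Subgroup.relIndex_bot_left, Subgroup.relIndex_bot_left] at this
  have h3 : Nat.card (A ⊓ N : Subgroup G) * A.relIndex N = Nat.card N := by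
    have := Subgroup.relIndex_mul_relIndex ⊥ (A ⊓ N) N bot_le inf_le_right
    rwa [Subgroup.relIndex_bot_left, Subgroup.relIndex_bot_left, Subgroup.inf_relIndex_right] at this
  have h4 : Nat.card (A ⊓ N : Subgroup G) * N.relIndex A = Nat.card A := by
    have := Subgroup.relIndex_mul_relIndex ⊥ (A ⊓ N) A bot_le inf_le_left
    rwa [Subgroup.relIndex_bot_left, Subgroup.relIndex_bot_left, Subgroup.inf_relIndex_left] at this
  have hA : 0 < Nat.card A := Nat.card_pos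
  have hI : 0 < Nat.card (A ⊓ N : Subgroup G) := Nat.card_pos
  apply Nat.eq_of_mul_eq_mul_left hI
  apply Nat.eq_of_mul_eq_mul_left hA
  calc Nat.card A * (Nat.card (A ⊓ N : Subgroup G) * A.relIndex N) = Nat.card A * Nat.card N := by rw [h3]
    _ = (Nat.card (A ⊓ N : Subgroup G) * N.relIndex A) * Nat.card N := by rw [h4]
    _ = Nat.card (A ⊓ N : Subgroup G) * (Nat.card N * N.relIndex A) := by ring
    _ = Nat.card (A ⊓ N : Subgroup G) * (Nat.card A * A.relIndex (A ⊔ N)) := by rw [← h1, h2]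
    _ = Nat.card A * (Nat.card (A ⊓ N : Subgroup G) * A.relIndex (A ⊔ N)) := by ring

theorem relIndex_dvd_index_of_norm {A N : Subgroup G} (h : A ≤ Subgroup.normalizer (N : Set G)) :
    A.relIndex N ∣ A.index := by
  rw [relIndex_sup_of_norm h]
  exact Subgroup.relIndex_dvd_index_of_le le_sup_left

/-- a `p`-element is conjugate into a subgroup of `p'`-index -/
theorem exists_conj_mem {p : ℕ} (hp : p.Prime) {A N : Subgroup G} (hd : ¬ p ∣ A.relIndex N) {z : G}
    (hz : ∃ k : ℕ, z ^ p ^ k = 1) (hzN : z ∈ N) : ∃ g ∈ N, g⁻¹ * z * g ∈ A := by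
  have hpf := Fact.mk hp
  obtain ⟨k, hk⟩ := hz
  set zN : N := ⟨z, hzN⟩ with hzN'
  have hZ : IsPGroup p (Subgroup.zpowers zN) := by
    refine IsPGroup.of_card_dvd_pow (n := k) ?_
    rw [Nat.card_zpowers]
    exact orderOf_dvd_of_pow_eq_one (Subtype.ext hk)
  have h1 : ¬ p ∣ Nat.card (N ⧸ A.subgroupOf N) := hd
  have hfin : Finite (N ⧸ A.subgroupOf N) := inferInstance
  obtain ⟨x, hx⟩ := hZ.nonempty_fixed_point_of_prime_not_dvd_card (N ⧸ A.subgroupOf N) h1
  obtain ⟨g, rfl⟩ := QuotientGroup.mk_surjective x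
  have h2 := hx ⟨zN, Subgroup.mem_zpowers zN⟩
  have h3 : ((zN * g : N) : N ⧸ A.subgroupOf N) = (g : N ⧸ A.subgroupOf N) := h2
  rw [eq_comm, QuotientGroup.eq] at h3
  refine ⟨g, g.2, ?_⟩
  have h4 : (g : G)⁻¹ * (z * g) ∈ A := h3
  rwa [mul_assoc]

/-- the `p`-part -/
theorem exists_ppart {r : ℕ} (hr : r.Prime) {C H : Subgroup G} (hn : H ≤ Subgroup.normalizer (C : Set G))
    (hidx : ∀ p : ℕ, p.Prime → p ∣ C.relIndex H → p = r) {h : G} (hh : h ∈ H) :
    ∃ m : ℕ, (∃ k : ℕ, (h ^ m) ^ r ^ k = 1) ∧ (h ^ m ∈ C → h ∈ C) := by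
  obtain ⟨a, m, hm, hom⟩ := Nat.exists_eq_pow_mul_and_not_dvd (orderOf_pos h).ne' r hr.ne_one
  refine ⟨m, ⟨a, ?_⟩, ?_⟩
  · rw [← pow_mul, mul_comm, ← hom, pow_orderOf_eq_one]
  · intro hmC
    -- `h ^ (index) ∈ C`
    have h3 : C.relIndex H ≠ 0 := Nat.ne_of_gt (Nat.pos_of_ne_zero Subgroup.index_ne_zero_of_finite)
    have h4 : C.relIndex H = r ^ (C.relIndex H).primeFactorsList.length :=
      Nat.eq_prime_pow_of_unique_prime_dvd h3 (fun {d} hd hdd => hidx d hd hdd)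
    set M := H ⊔ C with hM
    have hCM : C ≤ M := le_sup_right
    have hnorm : (C.subgroupOf M).Normal :=
      (Subgroup.normal_subgroupOf_iff_le_normalizer hCM).mpr (sup_le hn Subgroup.le_normalizer)
    have hidx' : C.relIndex M = C.relIndex H := by
      have h5 : H.subgroupOf M ⊔ C.subgroupOf M = ⊤ := by
        rw [← Subgroup.subgroupOf_sup le_sup_left hCM]
        exact Subgroup.subgroupOf_self _
      have h6 := Subgroup.relIndex_sup_right (H.subgroupOf M) (C.subgroupOf M)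
      rw [h5, Subgroup.relIndex_top_right, Subgroup.relIndex_subgroupOf le_sup_left] at h6
      exact h6
    have hhM : h ∈ M := (le_sup_left : H ≤ M) hh
    have h7 := Subgroup.pow_index_mem (C.subgroupOf M) (⟨h, hhM⟩ : M)
    have h8 : h ^ (C.relIndex H) ∈ C := by
      rw [← hidx']
      exact h7
    rw [h4] at h8
    generalize (C.relIndex H).primeFactorsList.length = b at h8
    have hcop : Nat.Coprime m (r ^ b) := by
      apply Nat.Coprime.pow_right
      exact ((Nat.Prime.coprime_iff_not_dvd hr).mpr hm).symm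
    have h9 := Nat.isCoprime_iff_coprime.mpr hcop
    obtain ⟨u, v, huv⟩ := h9
    have h10 : h = (h ^ m) ^ u * (h ^ r ^ b) ^ v := by
      rw [← zpow_natCast, ← zpow_natCast, ← zpow_mul, ← zpow_mul, ← zpow_add]
      nth_rewrite 1 [← zpow_one h]
      congr 1
      push_cast at huv ⊢
      linarith
    rw [h10]
    exact C.mul_mem (C.zpow_mem hmC u) (C.zpow_mem h8 v)

end grp

variable {F : Type*} [Field F] [Finite F] {V : Type*} [AddCommGroup V] [Module F V] [Finite V]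
  [FiniteDimensional F V] {K : Type*} [Group K] [Finite K]
  {ρ : Representation F K V} {f : V →ₗ[F] V →ₗ[F] F} {Q : V → F} {π : Set ℕ} {H D : Subgroup K} {U : Submodule F V}

/-! ### the isometries which are trivial on the orthogonal space of `U` -/

/-- the elements which are trivial on the orthogonal space of `U` -/
def KW (ρ : Representation F K V) (f : V →ₗ[F] V →ₗ[F] F) (U : Submodule F V) : Subgroup K where
  carrier := {g | ∀ w ∈ Orth f U, ρ g w = w}
  mul_mem' := fun {a b} ha hb w hw => by rw [mul_ap, hb w hw, ha w hw]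
  one_mem' := fun w _ => one_ap ρ w
  inv_mem' := fun {a} ha w hw => by
    nth_rewrite 1 [← ha w hw]
    rw [inv_ap]

theorem mem_KW {g : K} : g ∈ KW ρ f U ↔ ∀ w ∈ Orth f U, ρ g w = w := Iff.rfl

theorem KW_map (h : IsoG ρ f Q) (hU : ND f U) {g : K} (hg : g ∈ KW ρ f U) : U.map (ρ g) = U := by
  apply map_eq_of_le
  rintro _ ⟨u, hu, rfl⟩
  obtain ⟨a, ha, b, hb, he⟩ := decomp hU (ρ g u)
  have hb0 : b = 0 := by
    apply h.nd
    intro v
    obtain ⟨a', ha', b', hb', rfl⟩ := decomp hU v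
    have h1 : f b' (ρ g u) = 0 := by
      have h2 := h.iso g b' u
      rw [hg b' hb'] at h2
      rw [h2]
      exact h.refl _ _ (hb' u hu)
    have h2 : b = ρ g u - a := by rw [he]; abel
    rw [map_add, LinearMap.add_apply, hb a' ha', zero_add]
    nth_rewrite 1 [h2]
    rw [map_sub, h1, h.refl _ _ (hb' a ha), sub_zero]
  rw [he, hb0, add_zero]
  exact ha

theorem mem_KW_of_sp (h : IsoG ρ f Q) {g : K} (hg : sp ρ g ≤ U) : g ∈ KW ρ f U := by
  intro w hw
  rw [← mem_Orth_sp h]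
  exact fun u hu => hw u (hg hu)

theorem sp_le_of_KW (h : IsoG ρ f Q) (hU : ND f U) {g : K} (hg : g ∈ KW ρ f U) : sp ρ g ≤ U :=
  IsPart.sp_le (x := g) hU ⟨fun _ _ => rfl, hg⟩ fun _ hu => mem_of_map (KW_map h hU hg) hu

theorem KW_norm (h : IsoG ρ f Q) {g : K} (hg : U.map (ρ g) = U) {k : K} (hk : k ∈ KW ρ f U) :
    g * k * g⁻¹ ∈ KW ρ f U := by
  intro w hw
  have h1 : ρ g⁻¹ w ∈ Orth f U := mem_of_map (Orth_map_of_map h (map_inv_of_map hg)) hw
  rw [mul_ap, mul_ap, hk _ h1, ap_inv]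

theorem le_norm_KW (h : IsoG ρ f Q) (hDU : ∀ g ∈ D, U.map (ρ g) = U) :
    D ≤ Subgroup.normalizer (KW ρ f U : Set K) := by
  intro g hg
  rw [Subgroup.mem_normalizer_iff]
  intro k
  refine ⟨fun hk => KW_norm h (hDU g hg) hk, fun hk => ?_⟩
  have := KW_norm h (hDU g⁻¹ (D.inv_mem hg)) hk
  simpa [mul_assoc] using this

/-- `H ∩ K_U` is a Hall subgroup of `K_U` -/
theorem hall_KW (h : IsoG ρ f Q) (hH : IsPiHall π H) (hHD : H ≤ Subgroup.normalizer (D : Set K))
    (hKD : KW ρ f U ≤ D) (hDU : ∀ g ∈ D, U.map (ρ g) = U) {p : ℕ} (hp : p.Prime) (hpπ : p ∈ π) :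
    ¬ p ∣ (H ⊓ D).relIndex (KW ρ f U) := by
  intro hd
  have h1 : (H ⊓ D) ≤ Subgroup.normalizer (KW ρ f U : Set K) := inf_le_right.trans (le_norm_KW h hDU)
  rw [relIndex_sup_of_norm h1] at hd
  have h2 : (H ⊓ D).relIndex ((H ⊓ D) ⊔ KW ρ f U) ∣ (H ⊓ D).relIndex D := by
    rw [← Subgroup.relIndex_mul_relIndex (H ⊓ D) ((H ⊓ D) ⊔ KW ρ f U) D le_sup_left (sup_le inf_le_right hKD)]
    exact dvd_mul_right _ _
  rw [Subgroup.inf_relIndex_right] at h2
  exact hH.2 p hp hpπ ((hd.trans h2).trans (relIndex_dvd_index_of_norm hHD))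

/-- **parts of elements of `H` belong to `H`** -/
theorem part_mem (h : IsoG ρ f Q) (hH : IsPiHall π H) (hHD : H ≤ Subgroup.normalizer (D : Set K))
    (hKD : KW ρ f U ≤ D) (hDU : ∀ g ∈ D, U.map (ρ g) = U) (hU : ND f U) {x k : K} (hx : x ∈ H) (hxD : x ∈ D)
    (hk : IsPart ρ f U x k) : k ∈ H := by
  let P : Subgroup K :=
    { carrier := {k | ∃ x ∈ H ⊓ D, IsPart ρ f U x k}
      mul_mem' := by
        rintro a b ⟨x, hx, ha⟩ ⟨y, hy, hb⟩
        exact ⟨x * y, (H ⊓ D).mul_mem hx hy, ha.mul hb fun u hu => mem_of_map (hDU y hy.2) hu⟩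
      one_mem' := ⟨1, (H ⊓ D).one_mem, IsPart.one⟩
      inv_mem' := by
        rintro a ⟨x, hx, ha⟩
        exact ⟨x⁻¹, (H ⊓ D).inv_mem hx, ha.inv (hDU x hx.2)⟩ }
  have hPK : P ≤ KW ρ f U := by
    rintro k ⟨x, hx, hk⟩
    exact hk.2
  have hPπ : ∀ p : ℕ, p.Prime → p ∣ Nat.card P → p ∈ π := by
    intro p hp hd
    have hpf := Fact.mk hp
    obtain ⟨⟨k, x, hx, hk⟩, ho⟩ := exists_prime_orderOf_dvd_card' (G := P) p hd
    have h1 : k ^ orderOf x = 1 := by
      have h2 := hk.pow (fun u hu => mem_of_map (hDU x hx.2) hu) (orderOf x)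
      rw [pow_orderOf_eq_one] at h2
      exact h2.unique h.inj hU IsPart.one
    have h3 : p ∣ orderOf x := by
      rw [← ho, ← Subgroup.orderOf_coe]
      exact orderOf_dvd_of_pow_eq_one h1
    exact hH.1 p hp (h3.trans (Subgroup.orderOf_dvd_natCard H hx.1))
  have hle : (H ⊓ D) ⊓ KW ρ f U ≤ P := fun k hk => ⟨k, hk.1, fun _ _ => rfl, hk.2⟩
  have hP1 : (H ⊓ D).relIndex P = 1 := by
    by_contra hne
    obtain ⟨p, hp, hd⟩ := Nat.exists_prime_and_dvd hne
    have hpπ := hPπ p hp (hd.trans (Subgroup.relIndex_dvd_card _ _))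
    apply hall_KW h hH hHD hKD hDU hp hpπ
    have h1 : (H ⊓ D) ⊓ P = (H ⊓ D) ⊓ KW ρ f U :=
      le_antisymm (inf_le_inf_left _ hPK) (le_inf inf_le_left hle)
    rw [← Subgroup.inf_relIndex_right (H ⊓ D) P, h1] at hd
    rw [← Subgroup.inf_relIndex_right (H ⊓ D) (KW ρ f U), ← Subgroup.relIndex_mul_relIndex _ P _ hle hPK]
    exact hd.trans (dvd_mul_right _ _)
  exact (Subgroup.relIndex_eq_one.1 hP1 ⟨x, ⟨hx, hxD⟩, hk⟩).1

/-- `H` normalises the group fixing all blocks -/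
theorem le_norm_FB {t : ℕ} : H ≤ Subgroup.normalizer (FB ρ t H : Set K) := by
  have key : ∀ g ∈ H, ∀ k ∈ FB ρ t H, g * k * g⁻¹ ∈ FB ρ t H := by
    intro g hg k hk U hU
    have h1 : U.map (ρ g⁻¹) ∈ Bl ρ t H := Bl_map (H.inv_mem hg) hU
    rw [← map_map, ← map_map, hk _ h1, map_map, mul_inv_cancel, map_one']
  intro g hg
  rw [Subgroup.mem_normalizer_iff]
  intro k
  refine ⟨key g hg k, fun hk => ?_⟩
  have := key g⁻¹ (H.inv_mem hg) _ hk
  simpa [mul_assoc] using this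

/-- the isometries supported on a block fix all blocks -/
theorem KW_le_FB {t : ℕ} (h : Std ρ f Q t H) (hU : U ∈ Bl ρ t H) : KW ρ f U ≤ FB ρ t H := by
  intro g hg U' hU'
  by_cases he : U = U'
  · rw [← he]
    exact KW_map h.toIsoG (h.nd_bl hU) hg
  · have h1 := h.orth_of_bl hU hU' he
    apply map_eq_of_le
    rintro _ ⟨u, hu, rfl⟩
    rw [hg u (h1 hu)]
    exact hu

/-- parts on blocks -/
theorem part_bl_mem {t : ℕ} (h : Std ρ f Q t H) (hH : IsPiHall π H) (hU : U ∈ Bl ρ t H) {x k : K} (hx : x ∈ H)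
    (hxF : x ∈ FB ρ t H) (hk : IsPart ρ f U x k) : k ∈ H :=
  part_mem h.toIsoG hH le_norm_FB (KW_le_FB h hU) (fun _ hg => hg U hU) (h.nd_bl hU) hx hxF hk

/-- a subspace invariant under `H` -/
def StU (ρ : Representation F K V) (U : Submodule F V) : Subgroup K where
  carrier := {g | U.map (ρ g) = U}
  mul_mem' := fun {a b} ha hb => by
    have ha' : U.map (ρ a) = U := ha
    have hb' : U.map (ρ b) = U := hb
    show U.map (ρ (a * b)) = U
    rw [← map_map, hb', ha']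
  one_mem' := map_one' U
  inv_mem' := fun {a} ha => map_inv_of_map ha

/-- parts on invariant subspaces -/
theorem part_inv_mem (h : IsoG ρ f Q) (hH : IsPiHall π H) (hHU : ∀ g ∈ H, U.map (ρ g) = U) (hU : ND f U) {x k : K}
    (hx : x ∈ H) (hk : IsPart ρ f U x k) : k ∈ H :=
  part_mem (D := StU ρ U) h hH (fun g hg => Subgroup.le_normalizer (show g ∈ StU ρ U from hHU g hg))
    (fun _ hg => KW_map h hU hg) (fun _ hg => hg) hU hx (hHU x hx) hk

/-- parts on `[V, T]` -/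
theorem part_WB_mem {t : ℕ} (h : Std ρ f Q t H) (hH : IsPiHall π H) {x k : K} (hx : x ∈ H)
    (hk : IsPart ρ f (WB ρ t H) x k) : k ∈ H :=
  part_inv_mem h.toIsoG hH (fun _ hg => h.WB_map hg) h.nd_WB hx hk

/-! ### small elements -/

/-- a small element of order `t` below a `t`-element -/
theorem exists_small_le (h : IsoG ρ f Q) {t : ℕ} (ht : t.Prime) (hto : Odd t) (htF : (t : F) ≠ 0) {x : K}
    (hx : ∃ k : ℕ, x ^ t ^ k = 1) (hx1 : x ≠ 1) :
    ∃ z : K, z ^ t = 1 ∧ z ≠ 1 ∧ Small ρ t z ∧ sp ρ z ≤ sp ρ x := by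
  classical
  obtain ⟨y, hyx, hyt, hy1⟩ : ∃ y : K, sp ρ y ≤ sp ρ x ∧ y ^ t = 1 ∧ y ≠ 1 := by
    have h1 := Nat.find_spec hx
    have h2 : Nat.find hx ≠ 0 := by
      intro h0
      rw [h0, pow_zero, pow_one] at h1
      exact hx1 h1
    obtain ⟨n, hn⟩ := Nat.exists_eq_succ_of_ne_zero h2
    refine ⟨x ^ t ^ n, ?_, ?_, Nat.find_min hx (m := n) (by omega)⟩
    · have key : ∀ n : ℕ, sp ρ (x ^ n) ≤ sp ρ x := by
        intro n
        rintro _ ⟨v, rfl⟩
        show ρ (x ^ n) v - v ∈ sp ρ x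
        induction n with
        | zero => rw [pow_zero, one_ap, sub_self]; exact Submodule.zero_mem _
        | succ n ih =>
          have h3 : ρ (x ^ (n + 1)) v - v = (ρ x (ρ (x ^ n) v) - ρ (x ^ n) v) + (ρ (x ^ n) v - v) := by
            rw [pow_succ', mul_ap]; abel
          rw [h3]
          exact Submodule.add_mem _ (mem_sp _) ih
      exact key _
    · rw [← pow_mul, ← pow_succ]
      rw [hn] at h1
      exact h1
  have hyt' : (ρ y) ^ t = 1 := by rw [← map_pow, hyt, map_one]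
  have hy1' : ρ y ≠ 1 := fun h0 => hy1 (h.inj (by rw [h0, map_one]))
  obtain ⟨ε, hε, hsym⟩ := h.sym
  obtain ⟨v, hv, hvi⟩ := exists_vec f h.nd hε hsym hto htF hyt' hy1' (h.iso y)
  obtain ⟨z, U, hz1, hz2, hz3, hz4, hUy, hzU, hzO, hdec⟩ :=
    exists_small f h.refl ht.pos htF hyt' (h.iso y) hv hvi
  have hzQ : ∀ v, Q (z v) = Q v := by
    intro v
    obtain ⟨u, hu, w, hw, rfl⟩ := hdec v
    rw [map_add, hzU u hu, hzO w hw, h.addQ _ _ (hw _ (hUy u hu)), h.addQ _ _ (hw u hu), h.isoQ]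
  obtain ⟨k, hk⟩ := h.full z hz4 hzQ
  have hkt : k ^ t = 1 := h.inj (by rw [map_pow, hk, hz1, map_one])
  refine ⟨k, hkt, ?_, ⟨⟨1, by rw [pow_one]; exact hkt⟩, by unfold rk; rw [hk]; exact hz3⟩, ?_⟩
  · intro h0
    rw [h0, map_one] at hk
    exact hz2 hk.symm
  · refine le_trans ?_ hyx
    rintro _ ⟨v, rfl⟩
    obtain ⟨u, hu, w, hw, rfl⟩ := hdec v
    have e : (ρ k - 1) (u + w) = ρ y u - u := by
      show ρ k (u + w) - (u + w) = _
      rw [hk, map_add, hzU u hu, hzO w hw]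
      abel
    rw [e]
    exact mem_sp u

/-- `T`-invariant nondegenerate subspaces of a block -/
theorem bl_min {t : ℕ} {T : Subgroup K} (hT : SylT ρ f Q t H T) (hZT : Zs ρ t H ⊆ T) (hU : U ∈ Bl ρ t H)
    {X : Submodule F V} (hX : X ≤ U) (hXn : ND f X) (hXi : ∀ x ∈ T, X.map (ρ x) = X) : X = ⊥ ∨ X = U := by
  obtain ⟨z, hz, rfl, hz1, hmin⟩ := hU
  have hzT : z ∈ T := hZT hz
  have hnd : ND f (sp ρ z) := hT.toStd.ndz hz
  obtain ⟨k, hk⟩ := hT.toIsoG.exists_part hXn (fun u hu => mem_of_map (hXi z hzT) hu)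
  have hkT := hT.part_mem hXn hXi hzT hk
  have hkt := hk.tel (t := t) hT.toIsoG hXn (fun u hu => mem_of_map (hXi z hzT) hu) hz.2.1
  have hkZ : k ∈ Zs ρ t H := ⟨hT.hTH hkT, small_of_sp_le hkt hz.2 (hk.sp_le' hXn)⟩
  by_cases hk1 : k = 1
  · left
    rw [eq_bot_iff]
    intro x hx
    rw [Submodule.mem_bot]
    have h1 : ρ z x = x := by rw [← hk.1 x hx, hk1, one_ap]
    exact hnd x (hX hx) ((mem_Orth_sp hT.toIsoG).mpr h1)
  · right
    have h1 := hk.sp_le hXn (fun u hu => mem_of_map (hXi z hzT) hu)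
    have h2 := hmin k hkZ hk1 (h1.trans hX)
    exact le_antisymm hX (h2 ▸ h1)

/-- small `r`-elements of `H` centralise `T` -/
theorem small_comm {r t : ℕ} (hr : r.Prime) (hro : Odd r) {T : Subgroup K} (hT : TS ρ f Q t T)
    (hn : H ≤ Subgroup.normalizer (T : Set K)) {z : K} (hz : z ∈ H) (hzs : Small ρ r z) :
    ∀ d ∈ T, z * d = d * z := by
  refine comm_of_rk ρ hT.inj hr hro hzs.1 ?_ hT.card_odd hT.card_ne hT.ab ?_ f hT.iso hT.nd
  · have h1 := hzs.2
    have h2 := hr.two_le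
    omega
  · intro d hd
    exact (Subgroup.mem_normalizer_iff.mp (hn hz) d).mp hd

/-- small `r`-elements of `H` supported on a block have full support -/
theorem small_sp {r t : ℕ} (hr : r.Prime) (hro : Odd r) (hrF : (r : F) ≠ 0) {T : Subgroup K} (hTS : TS ρ f Q t T)
    (hT : SylT ρ f Q t H T) (hZT : Zs ρ t H ⊆ T)
    (hn : H ≤ Subgroup.normalizer (T : Set K)) {z : K} (hz : z ∈ H) (hz1 : z ≠ 1) (hzs : Small ρ r z)
    (hU : U ∈ Bl ρ t H) (hle : sp ρ z ≤ U) : sp ρ z = U := by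
  rcases bl_min hT hZT hU hle (nd_sp hT.toIsoG hrF hzs.1) (fun x hx =>
    map_sp_of_comm (small_comm hr hro hTS hn hz hzs x hx).symm) with h | h
  · rw [sp_eq_bot hT.inj] at h
    exact absurd h hz1
  · exact h

/-- `r`-elements of `H` supported on a block centralise `T` -/
theorem rel_comm {r t : ℕ} (hr : r.Prime) (hro : Odd r) (hrF : (r : F) ≠ 0) (hrπ : r ∈ π) (hH : IsPiHall π H)
    {T : Subgroup K} (hTS : TS ρ f Q t T)
    (hT : SylT ρ f Q t H T) (hZT : Zs ρ t H ⊆ T)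
    (hn : H ≤ Subgroup.normalizer (T : Set K)) {y : K} (hy : y ∈ H) (hyr : ∃ k : ℕ, y ^ r ^ k = 1)
    (hU : U ∈ Bl ρ t H) (hle : sp ρ y ≤ U) : ∀ d ∈ T, y * d = d * y := by
  by_cases hy1 : y = 1
  · intro d _
    rw [hy1, one_mul, mul_one]
  obtain ⟨z, hzr, hz1, hzs, hzy⟩ := exists_small_le hT.toIsoG hr hro hrF hyr hy1
  have hzK : z ∈ KW ρ f U := mem_KW_of_sp hT.toIsoG (hzy.trans hle)
  obtain ⟨g, hg, hgz⟩ := exists_conj_mem hr (hall_KW hT.toIsoG hH le_norm_FB (KW_le_FB hT.toStd hU)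
    (fun _ hg => hg U hU) hr hrπ) hzs.1 hzK
  have h1 : g⁻¹ * z * g⁻¹⁻¹ ∈ H := by rw [inv_inv]; exact hgz.1
  have h2 : Small ρ r (g⁻¹ * z * g⁻¹⁻¹) := hzs.conj g⁻¹
  have h3 : g⁻¹ * z * g⁻¹⁻¹ ≠ 1 := by rw [Ne, conj_eq_one_iff]; exact hz1
  have h4 : sp ρ (g⁻¹ * z * g⁻¹⁻¹) ≤ U := by
    apply sp_le_of_KW hT.toIsoG (hT.toStd.nd_bl hU)
    rw [inv_inv]
    exact (KW ρ f U).mul_mem ((KW ρ f U).mul_mem ((KW ρ f U).inv_mem hg) hzK) hg
  have h5 := small_sp hr hro hrF hTS hT hZT hn h1 h3 h2 hU h4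
  apply small_comm hr hro hTS hn hy
  refine ⟨hyr, (Submodule.finrank_mono hle).trans ?_⟩
  rw [← h5]
  exact h2.2

/-- elements acting on all blocks like commuting elements -/
theorem comm_of_parts {t : ℕ} {T : Subgroup K} (hT : SylT ρ f Q t H T) (hZT : Zs ρ t H ⊆ T)
    (hab : ∀ a ∈ T, ∀ b ∈ T, a * b = b * a) {y : K} (hyW : (WB ρ t H).map (ρ y) = WB ρ t H)
    (hyp : ∀ U ∈ Bl ρ t H, ∃ k, IsPart ρ f U y k ∧ ∀ d ∈ T, k * d = d * k) : ∀ d ∈ T, y * d = d * y := by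
  intro d hd
  have h1 : ∀ U ∈ Bl ρ t H, U ≤ LinearMap.ker (ρ (y * d) - ρ (d * y)) := by
    intro U hU u hu
    obtain ⟨k, hk, hkT⟩ := hyp U hU
    have hdU : U.map (ρ d) = U := by
      obtain ⟨z, hz, rfl, -⟩ := hU
      exact map_sp_of_comm (hab d hd z (hZT hz))
    rw [LinearMap.mem_ker, LinearMap.sub_apply, sub_eq_zero, mul_ap, mul_ap, ← hk.1 u hu,
      ← hk.1 _ (mem_of_map hdU hu), ← mul_ap, ← mul_ap, hkT d hd]
  have h2 : WB ρ t H ≤ LinearMap.ker (ρ (y * d) - ρ (d * y)) := by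
    refine CV_closure_le fun z hz => ?_
    exact hT.toStd.sp_le_of_bl h1 _ z hz rfl
  apply eq_of_parts hT.inj hT.toStd.nd_WB
  · intro u hu
    have := h2 hu
    rwa [LinearMap.mem_ker, LinearMap.sub_apply, sub_eq_zero] at this
  · intro w hw
    have h3 : ρ y w ∈ Orth f (WB ρ t H) := mem_of_map (Orth_map_of_map hT.toIsoG hyW) hw
    rw [mul_ap, mul_ap, hT.fixed hd hw, hT.fixed hd h3]

/-- **existence of frames** -/
theorem exists_frame (h : IsoG ρ f Q) (h2 : 2 ∉ π) (hp : ∀ r ∈ π, r.Prime → (r : F) ≠ 0) (hH : IsPiHall π H)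
    (hnn : ¬ Group.IsNilpotent H) : ∃ r t, Frame ρ f Q π H r t := by
  obtain ⟨r, t, T, hr, hr3, hrt, htπ, hTS, hTH, hn, hnc, hidx⟩ := Cfsg.Agent.H680.DP.exists_TS h h2 hp hH hnn
  have ht := hTS.ht
  have htf := Fact.mk ht
  have hS : Std ρ f Q t H := h.std h2 hp hH ht htπ
  -- `r ∈ π`
  have hrπ : r ∈ π := by
    have h3 : (Subgroup.centralizer (T : Set K)).relIndex H ≠ 1 := fun e => hnc (Subgroup.relIndex_eq_one.1 e)
    obtain ⟨s, hs', hd⟩ := Nat.exists_prime_and_dvd h3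
    have h4 := hidx s hs' hd
    subst h4
    exact hH.1 s hs' (hd.trans (Subgroup.relIndex_dvd_card _ _))
  have hro : Odd r := odd_of h2 hr hrπ
  have hrF : (r : F) ≠ 0 := hp r hrπ hr
  -- `T` contains the `t`-elements of `H`
  have hnC : H ≤ Subgroup.normalizer (Subgroup.centralizer (T : Set K) : Set K) := by
    have key : ∀ g ∈ H, ∀ c ∈ Subgroup.centralizer (T : Set K), g * c * g⁻¹ ∈ Subgroup.centralizer (T : Set K) := by
      intro g hg c hc
      rw [Subgroup.mem_centralizer_iff] at hc ⊢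
      intro x hx
      have h1 := hc _ ((Subgroup.mem_normalizer_iff.mp (hn (H.inv_mem hg)) x).mp hx)
      rw [inv_inv] at h1
      have h3 : x * (g * c * g⁻¹) = g * ((g⁻¹ * x * g) * c) * g⁻¹ := by group
      rw [h3, h1]
      group
    intro g hg
    rw [Subgroup.mem_normalizer_iff]
    intro c
    refine ⟨key g hg c, fun hc => ?_⟩
    have := key g⁻¹ (H.inv_mem hg) _ hc
    simpa [mul_assoc] using this
  have htH : ∀ x ∈ H, (∃ k : ℕ, x ^ t ^ k = 1) → x ∈ T := by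
    intro x hx hxt
    apply hTS.mx x hxt
    suffices hc : x ∈ Subgroup.centralizer (T : Set K) from Subgroup.mem_centralizer_iff.mp hc
    obtain ⟨m, ⟨k, hk⟩, hm⟩ := exists_ppart hr hnC hidx hx
    apply hm
    have h1 : x ^ m = 1 := by
      obtain ⟨j, hj⟩ := hxt
      have h3 : orderOf (x ^ m) ∣ r ^ k := orderOf_dvd_of_pow_eq_one hk
      have h4 : orderOf (x ^ m) ∣ t ^ j := by
        apply orderOf_dvd_of_pow_eq_one
        rw [← pow_mul, mul_comm, pow_mul, hj, one_pow]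
      have h5 : Nat.Coprime (r ^ k) (t ^ j) := Nat.Coprime.pow _ _ ((Nat.coprime_primes hr ht).mpr hrt.ne)
      rw [← orderOf_eq_one_iff]
      exact Nat.eq_one_of_dvd_coprimes h5 h3 h4
    rw [h1]
    exact Subgroup.one_mem _
  have hZT : Zs ρ t H ⊆ T := fun z hz => htH z hz.1 hz.2.1
  have hT : SylT ρ f Q t H T :=
    { toStd := hS
      hT := hTS.hT
      hTH := hTH
      hmax := by
        intro R hR hTR
        refine le_antisymm ?_ hTR
        -- a Sylow subgroup of `H`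
        obtain ⟨S, hST⟩ := hR.exists_le_sylow
        obtain ⟨P, hP⟩ : ∃ P : Sylow t K, (P : Subgroup K) ≤ H := by
          obtain ⟨T', S', hS'⟩ := exists_sylow_map (t := t) htπ hH
          exact ⟨S', by rw [hS']; exact Subgroup.map_subtype_le _⟩
        have h1 : (P : Subgroup K) ≤ T := by
          intro x hx
          refine htH x (hP hx) ?_
          obtain ⟨k, hk⟩ := P.2 ⟨x, hx⟩
          exact ⟨k, congrArg Subtype.val hk⟩
        have h3 := P.is_maximal' hR (h1.trans hTR)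
        rw [h3]
        exact h1 }
  have hTZ : Subgroup.closure (Zs ρ t H) = T := by
    apply le_antisymm
    · rw [Subgroup.closure_le]
      exact hZT
    · apply hT.le_closure
      rintro x hx U ⟨z, hz, rfl, -⟩
      exact map_sp_of_comm (hTS.ab x hx z (hZT hz))
  have hcF : Subgroup.centralizer (T : Set K) ≤ FB ρ t H := by
    rintro g hg U ⟨z, hz, rfl, -⟩
    exact map_sp_of_comm (Subgroup.mem_centralizer_iff.mp hg z (hZT hz)).symm
  have hcent : ∀ h ∈ H, h ∈ FB ρ t H → h ∈ Subgroup.centralizer (T : Set K) := by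
    intro x hx hxF
    obtain ⟨m, hmr, hm⟩ := exists_ppart hr hnC hidx hx
    apply hm
    have hyH : x ^ m ∈ H := H.pow_mem hx m
    have hyF : x ^ m ∈ FB ρ t H := (FB ρ t H).pow_mem hxF m
    generalize x ^ m = y at hmr hyH hyF
    have h3 : ∀ d ∈ T, y * d = d * y := by
      apply comm_of_parts hT hZT hTS.ab (hS.WB_map hyH)
      intro U hU
      have hyU : ∀ u ∈ U, ρ y u ∈ U := fun u hu => mem_of_map (hyF U hU) hu
      obtain ⟨k, hk⟩ := h.exists_part (hS.nd_bl hU) hyU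
      refine ⟨k, hk, rel_comm hr hro hrF hrπ hH hTS hT hZT hn (part_bl_mem hS hH hU hyH hyF hk)
        (hk.tel h (hS.nd_bl hU) hyU hmr) hU (hk.sp_le (hS.nd_bl hU) hyU)⟩
    rw [Subgroup.mem_centralizer_iff]
    exact fun d hd => (h3 d hd).symm
  refine ⟨r, t, ⟨h, h2, hp, hH, hr, hrπ, ht, htπ, hr3, hrt, ?_, ?_, ?_, ?_⟩⟩
  · rw [hTZ]
    obtain ⟨T', S', hS'⟩ := exists_sylow_map (t := t) htπ hH
    have h1 : (S' : Subgroup K) ≤ T := by
      intro x hx
      refine htH x ?_ ?_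
      · have : (S' : Subgroup K) ≤ H := by rw [hS']; exact Subgroup.map_subtype_le _
        exact this hx
      · obtain ⟨k, hk⟩ := S'.2 ⟨x, hx⟩
        exact ⟨k, congrArg Subtype.val hk⟩
    exact fun hd => S'.not_dvd_index (hd.trans (Subgroup.index_dvd_of_le h1))
  · intro x hx hxF z hz
    rw [hTZ] at hz
    exact (Subgroup.mem_centralizer_iff.mp (hcent x hx hxF) z hz).symm
  · by_contra hcon
    push Not at hcon
    apply hnc
    intro x hx
    obtain ⟨m, hmr, hm⟩ := exists_ppart hr hnC hidx hx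
    exact hm (hcent _ (H.pow_mem hx m) (hcon _ (H.pow_mem hx m) hmr))
  · intro p hpp hd
    exact hidx p hpp (hd.trans (Subgroup.relIndex_dvd_of_le_left H hcF))

end Cfsg.Agent.H969.DPi
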