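import Cfsg.Agent.H969.DPi.ExFrame

/-!
# An `r`-element of `H` fixing `C_V(T)` and not commuting with `T` (helper969, S4247)
-/

set_option autoImplicit false
set_option linter.unusedSectionVars false

namespace Cfsg.Agent.H969.DPi

open Module Cfsg.Agent.H167.OP Cfsg.Agent.H560.HallKey Cfsg.Agent.H170.HL Cfsg.Agent.H988.CPi
  Cfsg.Agent.H553.OddHall Cfsg.Agent.H571.RV Cfsg.Agent.H572.RV Cfsg.Agent.H602.DP

variable {F : Type*} [Field F] [Finite F] {V : Type*} [AddCommGroup V] [Module F V] [Finite V]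
  [FiniteDimensional F V] {K : Type*} [Group K] [Finite K]
  {ρ : Representation F K V} {f : V →ₗ[F] V →ₗ[F] F} {Q : V → F} {π : Set ℕ} {H : Subgroup K} {r t : ℕ}

/-- **an `r`-element of `H` which fixes `C_V(T)` and does not commute with `T`** -/
theorem exists_y (h : Frame ρ f Q π H r t) : ∃ y ∈ H, (∃ k : ℕ, y ^ r ^ k = 1) ∧
    (∀ w ∈ Orth f (WB ρ t H), ρ y w = w) ∧ ∃ z ∈ Subgroup.closure (Zs ρ t H), y * z ≠ z * y := by
  have hS : Std ρ f Q t H := h.toIsoG.std h.two h.char h.hall h.tp h.tπ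
  obtain ⟨x, hx, hxr, hxF⟩ := h.mv
  have hxW : ∀ u ∈ WB ρ t H, ρ x u ∈ WB ρ t H := fun u hu => mem_of_map (hS.WB_map hx) hu
  obtain ⟨y, hy⟩ := h.toIsoG.exists_part hS.nd_WB hxW
  refine ⟨y, part_WB_mem hS h.hall hx hy, hy.tel h.toIsoG hS.nd_WB hxW hxr, hy.2, ?_⟩
  by_contra hcon
  push Not at hcon
  apply hxF
  rintro U ⟨z, hz, rfl, -⟩
  have h1 : (sp ρ z).map (ρ y) = sp ρ z := map_sp_of_comm (hcon z (Subgroup.subset_closure hz))
  have h2 : sp ρ z ≤ WB ρ t H := range_le_CV ρ (Subgroup.subset_closure hz)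
  apply map_eq_of_le
  rintro _ ⟨u, hu, rfl⟩
  rw [← hy.1 u (h2 hu)]
  exact mem_of_map h1 hu

end Cfsg.Agent.H969.DPi
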